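import Cfsg.Agent.CosetEnum.SuzU43.Table

/-! Generated: checks of the table. -/

set_option autoImplicit false
set_option maxRecDepth 100000

namespace CfsgLib.CosetEnum.SuzU43.Tab

open CfsgLib.CosetEnum

theorem points0 : allFrom (checkPoint (fun x => x) 7 relWords CfsgLib.CosetEnum.SuzU43.H.TF CfsgLib.CosetEnum.SuzU43.H.parF 22880) 0 256 = true := by
  decide +kernel

theorem points256 : allFrom (checkPoint (fun x => x) 7 relWords CfsgLib.CosetEnum.SuzU43.H.TF CfsgLib.CosetEnum.SuzU43.H.parF 22880) 256 256 = true := by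
  decide +kernel

theorem points512 : allFrom (checkPoint (fun x => x) 7 relWords CfsgLib.CosetEnum.SuzU43.H.TF CfsgLib.CosetEnum.SuzU43.H.parF 22880) 512 256 = true := by
  decide +kernel

theorem points768 : allFrom (checkPoint (fun x => x) 7 relWords CfsgLib.CosetEnum.SuzU43.H.TF CfsgLib.CosetEnum.SuzU43.H.parF 22880) 768 256 = true := by
  decide +kernel

theorem points1024 : allFrom (checkPoint (fun x => x) 7 relWords CfsgLib.CosetEnum.SuzU43.H.TF CfsgLib.CosetEnum.SuzU43.H.parF 22880) 1024 256 = true := by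
  decide +kernel

theorem points1280 : allFrom (checkPoint (fun x => x) 7 relWords CfsgLib.CosetEnum.SuzU43.H.TF CfsgLib.CosetEnum.SuzU43.H.parF 22880) 1280 256 = true := by
  decide +kernel

theorem points1536 : allFrom (checkPoint (fun x => x) 7 relWords CfsgLib.CosetEnum.SuzU43.H.TF CfsgLib.CosetEnum.SuzU43.H.parF 22880) 1536 256 = true := by
  decide +kernel

theorem points1792 : allFrom (checkPoint (fun x => x) 7 relWords CfsgLib.CosetEnum.SuzU43.H.TF CfsgLib.CosetEnum.SuzU43.H.parF 22880) 1792 256 = true := by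
  decide +kernel

end CfsgLib.CosetEnum.SuzU43.Tab
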