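import Cfsg.Agent.CosetEnum.SuzU43.Table

/-! Generated: checks of the table. -/

set_option autoImplicit false
set_option maxRecDepth 100000

namespace CfsgLib.CosetEnum.SuzU43.Tab

open CfsgLib.CosetEnum

theorem points2048 : allFrom (checkPoint (fun x => x) 7 relWords CfsgLib.CosetEnum.SuzU43.H.TF CfsgLib.CosetEnum.SuzU43.H.parF 22880) 2048 256 = true := by
  decide +kernel

theorem points2304 : allFrom (checkPoint (fun x => x) 7 relWords CfsgLib.CosetEnum.SuzU43.H.TF CfsgLib.CosetEnum.SuzU43.H.parF 22880) 2304 256 = true := by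
  decide +kernel

theorem points2560 : allFrom (checkPoint (fun x => x) 7 relWords CfsgLib.CosetEnum.SuzU43.H.TF CfsgLib.CosetEnum.SuzU43.H.parF 22880) 2560 256 = true := by
  decide +kernel

theorem points2816 : allFrom (checkPoint (fun x => x) 7 relWords CfsgLib.CosetEnum.SuzU43.H.TF CfsgLib.CosetEnum.SuzU43.H.parF 22880) 2816 256 = true := by
  decide +kernel

theorem points3072 : allFrom (checkPoint (fun x => x) 7 relWords CfsgLib.CosetEnum.SuzU43.H.TF CfsgLib.CosetEnum.SuzU43.H.parF 22880) 3072 256 = true := by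
  decide +kernel

theorem points3328 : allFrom (checkPoint (fun x => x) 7 relWords CfsgLib.CosetEnum.SuzU43.H.TF CfsgLib.CosetEnum.SuzU43.H.parF 22880) 3328 256 = true := by
  decide +kernel

theorem points3584 : allFrom (checkPoint (fun x => x) 7 relWords CfsgLib.CosetEnum.SuzU43.H.TF CfsgLib.CosetEnum.SuzU43.H.parF 22880) 3584 256 = true := by
  decide +kernel

theorem points3840 : allFrom (checkPoint (fun x => x) 7 relWords CfsgLib.CosetEnum.SuzU43.H.TF CfsgLib.CosetEnum.SuzU43.H.parF 22880) 3840 256 = true := by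
  decide +kernel

end CfsgLib.CosetEnum.SuzU43.Tab
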