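import Cfsg.Agent.CosetEnum.SuzU43.Table

/-! Generated: checks of the table. -/

set_option autoImplicit false
set_option maxRecDepth 100000

namespace CfsgLib.CosetEnum.SuzU43.Tab

open CfsgLib.CosetEnum

theorem points20480 : allFrom (checkPoint (fun x => x) 7 relWords CfsgLib.CosetEnum.SuzU43.H.TF CfsgLib.CosetEnum.SuzU43.H.parF 22880) 20480 256 = true := by
  decide +kernel

theorem points20736 : allFrom (checkPoint (fun x => x) 7 relWords CfsgLib.CosetEnum.SuzU43.H.TF CfsgLib.CosetEnum.SuzU43.H.parF 22880) 20736 256 = true := by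
  decide +kernel

theorem points20992 : allFrom (checkPoint (fun x => x) 7 relWords CfsgLib.CosetEnum.SuzU43.H.TF CfsgLib.CosetEnum.SuzU43.H.parF 22880) 20992 256 = true := by
  decide +kernel

theorem points21248 : allFrom (checkPoint (fun x => x) 7 relWords CfsgLib.CosetEnum.SuzU43.H.TF CfsgLib.CosetEnum.SuzU43.H.parF 22880) 21248 256 = true := by
  decide +kernel

theorem points21504 : allFrom (checkPoint (fun x => x) 7 relWords CfsgLib.CosetEnum.SuzU43.H.TF CfsgLib.CosetEnum.SuzU43.H.parF 22880) 21504 256 = true := by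
  decide +kernel

theorem points21760 : allFrom (checkPoint (fun x => x) 7 relWords CfsgLib.CosetEnum.SuzU43.H.TF CfsgLib.CosetEnum.SuzU43.H.parF 22880) 21760 256 = true := by
  decide +kernel

theorem points22016 : allFrom (checkPoint (fun x => x) 7 relWords CfsgLib.CosetEnum.SuzU43.H.TF CfsgLib.CosetEnum.SuzU43.H.parF 22880) 22016 256 = true := by
  decide +kernel

theorem points22272 : allFrom (checkPoint (fun x => x) 7 relWords CfsgLib.CosetEnum.SuzU43.H.TF CfsgLib.CosetEnum.SuzU43.H.parF 22880) 22272 256 = true := by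
  decide +kernel

end CfsgLib.CosetEnum.SuzU43.Tab
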