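import Cfsg.Agent.CosetEnum.SuzU43.Table

/-! Generated: checks of the table. -/

set_option autoImplicit false
set_option maxRecDepth 100000

namespace CfsgLib.CosetEnum.SuzU43.Tab

open CfsgLib.CosetEnum

theorem points4096 : allFrom (checkPoint (fun x => x) 7 relWords CfsgLib.CosetEnum.SuzU43.H.TF CfsgLib.CosetEnum.SuzU43.H.parF 22880) 4096 256 = true := by
  decide +kernel

theorem points4352 : allFrom (checkPoint (fun x => x) 7 relWords CfsgLib.CosetEnum.SuzU43.H.TF CfsgLib.CosetEnum.SuzU43.H.parF 22880) 4352 256 = true := by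
  decide +kernel

theorem points4608 : allFrom (checkPoint (fun x => x) 7 relWords CfsgLib.CosetEnum.SuzU43.H.TF CfsgLib.CosetEnum.SuzU43.H.parF 22880) 4608 256 = true := by
  decide +kernel

theorem points4864 : allFrom (checkPoint (fun x => x) 7 relWords CfsgLib.CosetEnum.SuzU43.H.TF CfsgLib.CosetEnum.SuzU43.H.parF 22880) 4864 256 = true := by
  decide +kernel

theorem points5120 : allFrom (checkPoint (fun x => x) 7 relWords CfsgLib.CosetEnum.SuzU43.H.TF CfsgLib.CosetEnum.SuzU43.H.parF 22880) 5120 256 = true := by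
  decide +kernel

theorem points5376 : allFrom (checkPoint (fun x => x) 7 relWords CfsgLib.CosetEnum.SuzU43.H.TF CfsgLib.CosetEnum.SuzU43.H.parF 22880) 5376 256 = true := by
  decide +kernel

theorem points5632 : allFrom (checkPoint (fun x => x) 7 relWords CfsgLib.CosetEnum.SuzU43.H.TF CfsgLib.CosetEnum.SuzU43.H.parF 22880) 5632 256 = true := by
  decide +kernel

theorem points5888 : allFrom (checkPoint (fun x => x) 7 relWords CfsgLib.CosetEnum.SuzU43.H.TF CfsgLib.CosetEnum.SuzU43.H.parF 22880) 5888 256 = true := by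
  decide +kernel

end CfsgLib.CosetEnum.SuzU43.Tab
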